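import Mathlib
import Cfsg.Prelude.Def_OddOrderLocal

/-!
Black boxes for the assembly of row 1430 (Bender-Glauberman 14.3 (a),(b)), helper25.
Each is a statement about one finite group `G`; the assembly `s1430_of` takes them as hypotheses
next to frozen statements.
-/

set_option autoImplicit false

namespace Cfsg.Agent.Lib.Helper25.BG30

universe u

/-- Bender-Glauberman 13.11: if a subgroup `R` of prime order `r ∈ τ₃(M)` of a complement `E`
centralizes a non-identity element of `M_σ`, then `τ₂(M) = ∅`, `E` acts in a prime manner on `M_σ`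
and every subgroup of prime order of `E` is normal in `E`. -/
def Hyp1311 (G : Type u) [Group G] : Prop :=
  ∀ (M : Subgroup G), IsCoatom M → ∀ E : Subgroup G, Cfsg.IsComplIn E (Cfsg.sigmaCore M) M →
    ∀ (r : ℕ), r ∈ Cfsg.tau3 M → ∀ R : Subgroup G, R ≤ E → Nat.card R = r →
      Cfsg.sigmaCore M ⊓ Subgroup.centralizer (R : Set G) ≠ ⊥ →
      Cfsg.tau2 M = ∅ ∧
      (∀ x ∈ E, x ≠ 1 → Cfsg.sigmaCore M ⊓ Subgroup.centralizer ({x} : Set G) =
          Cfsg.sigmaCore M ⊓ Subgroup.centralizer (E : Set G)) ∧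
      (∀ X : Subgroup G, X ≤ E → (Nat.card X).Prime → E ≤ Subgroup.normalizer (X : Set G))

/-- Bender-Glauberman 13.12: a subgroup `P` of order `p ∈ τ₁(M)` of `E` that centralizes a
non-identity element of the elementary abelian `A ≤ E` of order `q ^ 2`, `q ∈ τ₂(M)`, acts
fixed-point-freely on `M_σ`. -/
def Hyp1312 (G : Type u) [Group G] : Prop :=
  ∀ (M : Subgroup G), IsCoatom M → ∀ E : Subgroup G, Cfsg.IsComplIn E (Cfsg.sigmaCore M) M →
    ∀ (q : ℕ), q ∈ Cfsg.tau2 M → ∀ A : Subgroup G, A ≤ E → Cfsg.IsElementaryAbelian q A →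
      Nat.card A = q ^ 2 → ∀ (p : ℕ), p ∈ Cfsg.tau1 M → ∀ P : Subgroup G, P ≤ E → Nat.card P = p →
        A ⊓ Subgroup.centralizer (P : Set G) ≠ ⊥ →
        Cfsg.sigmaCore M ⊓ Subgroup.centralizer (P : Set G) = ⊥

/-- Clause (3c) of row 1430: if `X ≤ M` has prime order `p ∉ σ(M)`, `M` has `p`-rank one, `X`
centralizes a non-identity element of `M_σ`, and `J` is a maximal subgroup over `N_G(X)`, then
`X ≤ J_σ`. -/
def HypOpenD (G : Type u) [Group G] : Prop :=
  ∀ (M : Subgroup G), IsCoatom M → ∀ (p : ℕ), p.Prime → p ∉ Cfsg.sigma M → Cfsg.PRankLE p 1 M →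
    ∀ X : Subgroup G, X ≤ M → Nat.card X = p →
      Cfsg.sigmaCore M ⊓ Subgroup.centralizer (X : Set G) ≠ ⊥ →
      ∀ J : Subgroup G, IsCoatom J → Subgroup.normalizer (X : Set G) ≤ J → X ≤ Cfsg.sigmaCore J

end Cfsg.Agent.Lib.Helper25.BG30
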